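/- Theorem ZD, piece Z3, part (3): arithmetic and basic facts.  Owner: lead. -/
import Cfsg.Agent.BS.S.ZDE

set_option autoImplicit false
set_option linter.unusedSectionVars false

namespace Cfsg.Agent.BS.ZD.T3z

open Subgroup MulAction Cfsg.Agent.Lib.Core Cfsg.Agent.FT P1 Cfsg.Agent.Lib.Invol E5
open scoped Cfsg.Agent.Lib.Glaub

theorem two_adic {m n x y : ℕ} (hx : Odd x) (hy : Odd y) (h : 2 ^ m * x = 2 ^ n * y) : m = n := by
  have key : ∀ {m n x y : ℕ}, Odd x → 2 ^ m * x = 2 ^ n * y → n ≤ m := fun {m n x y} hx h =>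
    (Nat.pow_dvd_pow_iff_le_right one_lt_two).1
      (((Nat.coprime_two_left.2 hx).pow_left n).dvd_of_dvd_mul_right (h ▸ dvd_mul_right _ _))
  exact le_antisymm (key hy h.symm) (key hx h)

theorem arith1 {f g j : ℕ} (hf : 2 ≤ f) (hg : f ≤ g) (hj : 1 ≤ j)
    (h : ((2 ^ g) ^ j + 1) * (2 ^ g - 1) =
      (2 ^ f + 1) * (2 ^ g - 1) + (2 ^ f + 1) * (2 ^ f + 1 - 1) * (2 ^ f - 1) ^ 2) :
    (g = f ∧ j = 3) ∨ g = 2 * f := by
  obtain ⟨k, hk⟩ : ∃ k, g * j = f + k := Nat.exists_eq_add_of_le (hg.trans (Nat.le_mul_of_pos_right g hj))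
  have h4 : 4 ≤ 2 ^ f := Nat.pow_le_pow_right two_pos hf
  have hB : 1 ≤ 2 ^ g := Nat.one_le_two_pow
  rw [← pow_mul, hk, pow_add, Nat.add_sub_cancel] at h
  have e : 2 ^ k * 2 ^ g + (2 ^ f) ^ 2 + 2 ^ f = (2 ^ f) ^ 3 + 2 ^ k + 2 ^ g := by
    zify [hB, show 1 ≤ 2 ^ f by omega] at h ⊢
    have : (2 : ℤ) ^ f ≠ 0 := by positivity
    apply mul_left_cancel₀ this
    linear_combination h
  rcases hg.eq_or_lt with rfl | hl
  · refine .inl ⟨rfl, ?_⟩
    have e1 : 2 ^ k * (2 ^ f - 1) = 2 ^ (2 * f) * (2 ^ f - 1) := by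
      zify [hB] at e ⊢; rw [mul_comm 2 f, pow_mul]; linear_combination e
    have := Nat.pow_right_injective le_rfl (Nat.eq_of_mul_eq_mul_right (by omega) e1)
    exact Nat.eq_of_mul_eq_mul_left (show 0 < f by omega) (by omega)
  right
  obtain ⟨s, rfl⟩ := Nat.exists_eq_add_of_lt hl
  have o1 : ∀ n, Odd (2 ^ (n + 1) - 1) := fun n =>
    Nat.Even.sub_odd Nat.one_le_two_pow (Nat.even_pow.2 ⟨even_two, by omega⟩) odd_one
  -- `A = 2 ^ k` has to be `q`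
  have hkf : k = f := by
    obtain ⟨f, rfl⟩ : ∃ f', f = f' + 1 := ⟨f - 1, by omega⟩
    rcases lt_trichotomy k (f + 1) with l | l | l
    · exfalso
      obtain ⟨r, hr⟩ := Nat.exists_eq_add_of_lt l
      have : 2 ^ (k + 1) ∣ 2 ^ k := by
        have d1 : 2 ^ (k + 1) ∣ 2 ^ (f + 1) := pow_dvd_pow 2 l
        have d2 : 2 ^ (k + 1) ∣ 2 ^ (f + 1 + s + 1) := pow_dvd_pow 2 (by omega)
        have d3 : 2 ^ (k + 1) ∣ (2 ^ (f + 1)) ^ 3 + 2 ^ k + 2 ^ (f + 1 + s + 1) :=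
          e ▸ dvd_add (dvd_add (d2.mul_left _) (d1.pow two_ne_zero)) d1
        exact (Nat.dvd_add_right (d1.pow three_ne_zero)).1 ((Nat.dvd_add_left d2).1 d3)
      exact absurd ((Nat.pow_dvd_pow_iff_le_right one_lt_two).1 this) (by omega)
    · exact l
    · exfalso
      have : 2 ^ (f + 2) ∣ 2 ^ (f + 1) := by
        have d1 : 2 ^ (f + 2) ∣ 2 ^ k := pow_dvd_pow 2 l
        have d2 : 2 ^ (f + 2) ∣ 2 ^ (f + 1 + s + 1) := pow_dvd_pow 2 (by omega)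
        have d4 : 2 ^ (f + 2) ∣ (2 ^ (f + 1)) ^ 2 := by rw [← pow_mul]; exact pow_dvd_pow 2 (by omega)
        have d5 : 2 ^ (f + 2) ∣ (2 ^ (f + 1)) ^ 3 := by rw [← pow_mul]; exact pow_dvd_pow 2 (by omega)
        exact (Nat.dvd_add_right (dvd_add (d1.mul_right _) d4)).1 (e ▸ dvd_add (dvd_add d5 d1) d2)
      exact absurd ((Nat.pow_dvd_pow_iff_le_right one_lt_two).1 this) (by omega)
  subst hkf
  have e1 : 2 ^ (k + s + 1) * (2 ^ k - 1) = 2 ^ (2 * k) * (2 ^ k - 1) := by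
    zify [show 1 ≤ 2 ^ k by omega] at e ⊢; rw [mul_comm 2 k, pow_mul]; linear_combination e
  exact Nat.pow_right_injective le_rfl (Nat.eq_of_mul_eq_mul_right (by omega) e1)

theorem arith2 {q c c' : ℕ} (h4 : 4 ≤ q) (he : 4 ∣ q) (h0 : q + 1 ∣ c)
    (h1 : c * c' = (q ^ 3 + 1) * (q - 1)) (h2 : q ∣ c' + 1)
    (h3 : ∀ r : ℕ, r.Prime → r ∣ c → ¬ r ∣ q - 1 → r ∣ c' + 2) : False := by
  obtain ⟨y, hy⟩ := h2
  obtain ⟨c, rfl⟩ := h0
  obtain ⟨p, rfl⟩ : ∃ p, q = p + 1 := ⟨q - 1, by omega⟩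
  rw [Nat.add_sub_cancel] at h1 h3
  have h5 : c * c' = (p * p + p + 1) * p :=
    Nat.eq_of_mul_eq_mul_left (show 0 < p + 1 + 1 by omega) (by linear_combination h1)
  have c0 : c ≠ 0 := fun e => by
    rw [e, zero_mul] at h5; exact absurd h5.symm (mul_ne_zero (by omega) (by omega))
  have e0 : c * ((p + 1) * y) + 1 = c + (p + 1) * (p * p + 1) := by rw [← hy]; linear_combination h5
  obtain ⟨x, rfl⟩ : ∃ x, c = 1 + (p + 1) * x := by
    have : c ≡ 1 [MOD (p + 1)] := by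
      have := congrArg (· % (p + 1)) e0
      simp only [Nat.add_mul_mod_self_left] at this
      rw [mul_left_comm, add_comm, Nat.add_mul_mod_self_left] at this
      exact this.symm
    obtain ⟨x, hx⟩ := (Nat.modEq_iff_dvd' (Nat.pos_of_ne_zero c0)).1 this.symm
    exact ⟨x, by omega⟩
  have e1 : y + (p + 1) * x * y = x + p * p + 1 :=
    Nat.eq_of_mul_eq_mul_left (show 0 < p + 1 by omega) (by linear_combination e0)
  have hy1 : 1 ≤ y := Nat.pos_of_ne_zero fun e => by rw [e] at hy; omega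
  obtain ⟨k, hk⟩ := he
  rcases Nat.eq_zero_or_pos x with rfl | hx
  · obtain ⟨r, hr, hd⟩ := Nat.exists_prime_and_dvd (show p + 1 + 1 ≠ 1 by omega)
    have r2 : ¬ r ∣ 2 := fun e => by
      rw [(Nat.prime_dvd_prime_iff_eq hr Nat.prime_two).1 e] at hd; omega
    have := h3 r hr (hd.mul_right _) fun e => r2 ((Nat.dvd_add_right e).1 hd)
    have e2 : c' + 2 + 4 = (p + 1 + 1) * (p * p + 3) - (p + 1 + 1) * p := by
      rw [mul_zero, add_zero, one_mul] at h5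
      exact (Nat.sub_eq_of_eq_add (by rw [h5]; ring)).symm
    have d4 : r ∣ 2 ^ 2 := (Nat.dvd_add_right this).1 (e2 ▸ Nat.dvd_sub (hd.mul_right _) (hd.mul_right _))
    exact r2 (hr.dvd_of_dvd_pow d4)
  have hxq : x ≤ p := by nlinarith
  have hyq : y ≤ p := by nlinarith
  rcases lt_trichotomy y (x + 2) with l | l | l
  · have d1 : p + 1 ∣ x + 2 - y := ⟨x * y + 1 - p, by
      have : p ≤ x * y + 1 := by nlinarith
      zify [this, l.le] at e1 ⊢; linear_combination -e1⟩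
    have := Nat.le_of_dvd (by omega) d1
    obtain rfl : y = 1 := by omega
    obtain rfl : x = p := by omega
    obtain rfl : c' = x := by omega
    have n3 : ¬ 9 ∣ 1 + (c' + 1) * c' := fun h9 => by
      have : ∀ a : ZMod 9, 1 + (a + 1) * a ≠ 0 := by decide
      exact this c' (by exact_mod_cast (ZMod.natCast_eq_zero_iff _ 9).2 h9)
    have all : ∀ r : ℕ, r.Prime → r ∣ 1 + (c' + 1) * c' → r = 3 := fun r hr hd => by
      have := h3 r hr (hd.mul_left _) fun e => hr.ne_one (Nat.dvd_one.1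
        ((Nat.dvd_add_left (e.mul_left _)).1 hd))
      refine (Nat.prime_dvd_prime_iff_eq hr Nat.prime_three).1 ((Nat.dvd_add_right hd).1 ?_)
      have e3 : 1 + (c' + 1) * c' + 3 = (c' + 2) * (c' + 2) - (c' + 2) * 3 + 2 * 3 := by
        have : (c' + 2) * 3 ≤ (c' + 2) * (c' + 2) := by nlinarith
        zify [this]; ring
      have e4 : r ∣ (1 + (c' + 1) * c') + (c' + 2) * 3 - (c' + 2) * (c' + 2) :=
        Nat.dvd_sub (dvd_add hd (this.mul_right _)) (this.mul_right _)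
      rw [show (1 + (c' + 1) * c') + (c' + 2) * 3 - (c' + 2) * (c' + 2) = 3 from
        Nat.sub_eq_of_eq_add (by ring)] at e4
      exact dvd_add hd e4
    obtain ⟨m, hm⟩ : ∃ m, 1 + (c' + 1) * c' = 3 ^ m :=
      ⟨_, Nat.eq_prime_pow_of_unique_prime_dvd (by omega) fun hr hd => all _ hr hd⟩
    rcases Nat.lt_or_ge m 2 with l | l
    · have : 3 ^ m ≤ 3 ^ 1 := Nat.pow_le_pow_right (by omega) (by omega)
      nlinarith
    · exact n3 (hm ▸ pow_dvd_pow 3 l)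
  · subst l
    have e2 : x * (x + 2) + 1 = p := Nat.eq_of_mul_eq_mul_left (show 0 < p + 1 by omega)
      (by linear_combination e1)
    have : ∀ a : ZMod 4, a * (a + 2) + 1 + 1 ≠ 0 := by decide
    have d4 : 4 ∣ x * (x + 2) + 1 + 1 := ⟨k, by rw [e2, hk]⟩
    exact this x (by exact_mod_cast (ZMod.natCast_eq_zero_iff _ 4).2 d4)
  · have d1 : p + 1 ∣ y - (x + 2) := ⟨p - (x * y + 1), by
      have : x * y + 1 ≤ p := by nlinarith
      zify [this, l.le] at e1 ⊢; linear_combination e1⟩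
    have := Nat.le_of_dvd (by omega) d1
    omega

theorem arith3 {q c c' : ℕ} (h4 : 4 ≤ q) (h1 : c * c' = (q ^ 3 + 1) * (q - 1)) (h2 : q * q ∣ c' + 1)
    (h3 : ∀ r : ℕ, r.Prime → r ∣ c → ¬ r ∣ q - 1 → r ∣ c' + 2) : False := by
  obtain ⟨y, hy⟩ := h2
  obtain ⟨p, rfl⟩ : ∃ p, q = p + 1 := ⟨q - 1, by omega⟩
  rw [Nat.add_sub_cancel] at h1 h3
  have hy1 : 1 ≤ y := Nat.pos_of_ne_zero fun e => by rw [e] at hy; omega
  have e0 : c * ((p + 1) * (p + 1) * y) = c + p + (p + 1) * (p + 1) * ((p + 1) * p) := by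
    rw [← hy]; linear_combination h1
  obtain ⟨x, hx⟩ : (p + 1) * (p + 1) ∣ c + p := (Nat.dvd_add_left (dvd_mul_right _ _)).1
    (e0 ▸ (dvd_mul_right _ y).mul_left c)
  have e1 : c * y = x + (p + 1) * p :=
    Nat.eq_of_mul_eq_mul_left (show 0 < (p + 1) * (p + 1) by positivity) (by linear_combination e0 + hx)
  have hx1 : 1 ≤ x := Nat.pos_of_ne_zero fun e => by rw [e] at hx; omega
  have l1 : c ≤ x + (p + 1) * p := e1 ▸ Nat.le_mul_of_pos_right c hy1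
  obtain rfl : x = 1 := by
    by_contra hn
    have := Nat.mul_le_mul_left (p * p + 2 * p) (show 2 ≤ x by omega)
    nlinarith
  obtain rfl : c = 1 + (p + 1) * p := by nlinarith
  obtain rfl : y = 1 := Nat.eq_of_mul_eq_mul_left (show 0 < 1 + (p + 1) * p by omega) (by omega)
  obtain ⟨r, hr, hd⟩ := Nat.exists_prime_and_dvd (show 1 + (p + 1) * p ≠ 1 by nlinarith)
  have n1 : ¬ r ∣ 1 := fun e => hr.ne_one (Nat.dvd_one.1 e)
  have := h3 r hr hd fun e => n1 ((Nat.dvd_add_left (e.mul_left _)).1 hd)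
  rw [show c' + 2 = 1 + (p + 1) * p + (p + 1) by nlinarith] at this
  exact n1 ((Nat.dvd_add_left (((Nat.dvd_add_right hd).1 this).mul_right _)).1 hd)

universe u
variable {G Ω : Type u} [Group G] [Finite G] [MulAction G Ω] [Finite Ω] {Z : Set G}
  {E K Q Y L E' K' Q' Y' L' : Subgroup G} {a b c : Ω} {t t' w x y z e k : G} {i j : ℕ}

theorem a_mem (h : ZA Ω Z) (d : LB Z L a t E K Q Y i) : a ∈ Gm Ω Z L :=
  let ⟨z, _, hz, zL⟩ := ex_z h d; ⟨z, hz.1, zL, hz.2⟩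

theorem smul_mem (h : ZA Ω Z) (hx : x ∈ L) (hc : c ∈ Gm Ω Z L) : x • c ∈ Gm Ω Z L :=
  h.Gm_smul (le_normalizer hx) hc

theorem b_mem (h : ZA Ω Z) (d : LB Z L a t E K Q Y i) : t • a ∈ Gm Ω Z L := smul_mem h d.tL (a_mem h d)

theorem Y_nrm (h : ZA Ω Z) (d : LB Z L a t E K Q Y i) : Y ⊲ L :=
  ⟨fun y hy => ((d.memY y).1 hy).1, fun g hg => mem_normalizer_fintype fun y hy => (d.memY _).2
    ⟨mul_mem (mul_mem hg ((d.memY y).1 hy).1) (inv_mem hg), fun c hc => by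
      rw [mul_smul, mul_smul, ((d.memY y).1 hy).2 _ (smul_mem h (inv_mem hg) hc), smul_inv_smul]⟩⟩

theorem Y_le (h : ZA Ω Z) (d : LB Z L a t E K Q Y i) : Y ≤ St2 G a (t • a) := fun y hy =>
  ⟨((d.memY y).1 hy).2 _ (a_mem h d), ((d.memY y).1 hy).2 _ (b_mem h d)⟩

theorem E_le (d : LB Z L a t E K Q Y i) : E ≤ L ⊓ stabilizer G a := d.EQ.trans d.Qn.le

theorem E_fix (h : ZA Ω Z) (d : LB Z L a t E K Q Y i) (he : e ∈ E) (hc : c ≠ a) (ec : e • c = c) : e = 1 :=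
  ((d.memE e).1 he).resolve_right fun h' => hc (h.uniq h'.1 ec h'.2.2)

theorem cent_Y (h : T2 Ω Z) (d : LB Z L a t E K Q Y i) : closure (Z ∩ L) ≤ 𝐂(Y) := by
  refine (closure_le _).2 fun z hz => mem_cent_iff.2 fun y hy => ?_
  have A := h.toZA
  obtain ⟨c, hc, -⟩ := A.one z hz.1
  have yc : y • c = c := ((d.memY y).1 hy).2 c ⟨z, hz.1, hz.2, hc⟩
  have m : z * (y * z * y⁻¹) ∈ Y := by
    have := mul_mem ((Y_nrm A d).conj_mem hz.2 hy) (inv_mem hy)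
    rwa [A.inv_eq hz.1, show z * y * z * y⁻¹ = z * (y * z * y⁻¹) by group] at this
  by_contra hn
  have key := fun c' (h' : c' ∈ Gm Ω Z L) => h.t4 z hz.1 _ (A.conj z hz.1 y)
    (fun e => hn (by rw [← mul_inv_eq_iff_eq_mul.1 e.symm])) c c' hc
    (by have := conj_fix y hc; rwa [yc] at this) (((d.memY _).1 m).2 c' h')
  exact d.ne ((key _ (b_mem A d)).trans (key _ (a_mem A d)).symm)

theorem K_le (d : LB Z L a t E K Q Y i) : K ≤ L ⊓ St2 G a (t • a) := fun k hk =>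
  ⟨((d.memK k).1 hk).1, ((d.memK k).1 hk).2.1⟩

theorem kt (h : ZC Ω Z) (d : LB Z L a t E K Q Y i) (hk : k ∈ K) : k * t ∈ Z ∧ (k * t) • a = t • a :=
  (h.mem_KO d.tZ d.ne).1 ((d.memK k).1 hk).2

theorem mul_t (h : ZC Ω Z) (d : LB Z L a t E K Q Y i) (hz : z ∈ Z) (zL : z ∈ L) (e : z • a = t • a) :
    z * t ∈ K := (d.memK _).2 ⟨mul_mem zL d.tL, (h.mem_KO d.tZ d.ne).2 (by
      rw [mul_assoc, h.sq d.tZ, mul_one]; exact ⟨hz, e⟩)⟩

theorem K_norm (h : ZC Ω Z) (d : LB Z L a t E K Q Y i) : L ⊓ St2 G a (t • a) ≤ 𝐍(K) := fun g hg =>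
  mem_normalizer_fintype fun k hk => by
    have key : ∀ z ∈ Z, z ∈ L → z • a = t • a → g * z * g⁻¹ * t ∈ K := fun z hz zL e =>
      mul_t h d (h.conj z hz g) (mul_mem (mul_mem hg.1 zL) (inv_mem hg.1)) (by
        rw [mul_smul, mul_smul, inv_smul_eq_iff.2 (Eq.symm hg.2.1), e]; exact hg.2.2)
    have h1 := key _ (kt h d hk).1 (mul_mem (K_le d hk).1 d.tL) (kt h d hk).2
    have := mul_mem h1 (inv_mem (key t d.tZ d.tL rfl))
    rwa [show g * (k * t) * g⁻¹ * t * (g * t * g⁻¹ * t)⁻¹ = g * k * g⁻¹ by group] at this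

theorem K_cY (h : T2 Ω Z) (d : LB Z L a t E K Q Y i) : K ≤ 𝐂(Y) := fun k hk => by
  have := mul_mem (cent_Y h d (subset_closure ⟨(kt h.toZC d hk).1, mul_mem (K_le d hk).1 d.tL⟩))
    (inv_mem (cent_Y h d (subset_closure ⟨d.tZ, d.tL⟩)))
  rwa [mul_inv_cancel_right] at this

theorem odd_K (d : LB Z L a t E K Q Y i) : ¬ 2 ∣ Nat.card K := by
  obtain ⟨f, hf, e⟩ := pow2 d
  have := d.cardK
  have : 2 ∣ Nat.card E := e ▸ dvd_pow_self 2 (by omega)
  omega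

/-- (0) -/
theorem zero (d : LB Z L a t E K Q Y i) (hx : x ∈ L ⊓ St2 G a (t • a)) (hE : x ∈ 𝐂(E)) : x * t = t * x :=
  let ⟨s, hs, _, h⟩ := d.dist; (h x hx).1 (mem_cent_iff.1 hE s hs).symm

theorem E_mono (d : LB Z L a t E K Q Y i) (d' : LB Z L' a t' E' K' Q' Y' j) (h : E ≤ L') : E ≤ E' :=
  fun x hx => (d'.memE x).2 (((d.memE x).1 hx).imp id fun e => ⟨e.1, h hx, e.2.2⟩)

theorem cp (h : ZA Ω Z) (d : LB Z L a t E K Q Y i) (hl : E ≤ L') : CP Z L' := by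
  obtain ⟨x, hx, y, hy, hne⟩ := (Set.one_lt_ncard (s := Za Z a ∩ L)).1 (by
    rw [card_inter h d]; have := d.four; omega)
  have h1 : x ∈ E := (Za_inter h d ▸ hx : x ∈ (E : Set G) \ {1}).1
  have h2 : y ∈ E := (Za_inter h d ▸ hy : y ∈ (E : Set G) \ {1}).1
  exact ⟨x, hl h1, y, hl h2, hx.1.1, hy.1.1, hne, mem_cent_iff.1 (d.QC (d.EQ h2)) x h1⟩

theorem card_line (h : ZA Ω Z) (d : LB Z L a t E K Q Y i) :
    (insert a {c | ∃ e ∈ E, e • t • a = c}).ncard = Nat.card E + 1 := by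
  have e := card_orb E (t • a)
  rw [show E ⊓ stabilizer G (t • a) = ⊥ from eq_bot_iff.2 fun x hx => E_fix h d hx.1 d.ne hx.2, card_bot,
    one_mul] at e
  rw [Set.ncard_insert_of_notMem, e]
  rintro ⟨x, hx, e⟩
  exact d.ne (smul_left_cancel x (e.trans (Eq.symm (E_le d hx).2)))

end Cfsg.Agent.BS.ZD.T3z
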